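import Cfsg.Agent.H6.Fi24.Tab2

set_option autoImplicit false
set_option maxRecDepth 100000
set_option Elab.async false

namespace Cfsg.H6.Fi24

theorem p100 : allR (ptU img) 38400 384 = true := by decide +kernel

theorem p101 : allR (ptU img) 38784 384 = true := by decide +kernel

theorem p102 : allR (ptU img) 39168 384 = true := by decide +kernel

theorem p103 : allR (ptU img) 39552 384 = true := by decide +kernel

theorem p104 : allR (ptU img) 39936 384 = true := by decide +kernel

theorem p105 : allR (ptU img) 40320 384 = true := by decide +kernel

theorem p106 : allR (ptU img) 40704 384 = true := by decide +kernel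

theorem p107 : allR (ptU img) 41088 384 = true := by decide +kernel

theorem p108 : allR (ptU img) 41472 384 = true := by decide +kernel

theorem p109 : allR (ptU img) 41856 384 = true := by decide +kernel

end Cfsg.H6.Fi24
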