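import Cfsg.Agent.H6.Fi24.Tab2

set_option autoImplicit false
set_option maxRecDepth 100000
set_option Elab.async false

namespace Cfsg.H6.Fi24

theorem p110 : allR (ptU img) 42240 384 = true := by decide +kernel

theorem p111 : allR (ptU img) 42624 384 = true := by decide +kernel

theorem p112 : allR (ptU img) 43008 384 = true := by decide +kernel

theorem p113 : allR (ptU img) 43392 384 = true := by decide +kernel

theorem p114 : allR (ptU img) 43776 384 = true := by decide +kernel

theorem p115 : allR (ptU img) 44160 384 = true := by decide +kernel

theorem p116 : allR (ptU img) 44544 384 = true := by decide +kernel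

theorem p117 : allR (ptU img) 44928 384 = true := by decide +kernel

theorem p118 : allR (ptU img) 45312 384 = true := by decide +kernel

theorem p119 : allR (ptU img) 45696 384 = true := by decide +kernel

end Cfsg.H6.Fi24
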