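import Cfsg.Agent.H6.Fi24.Tab2

set_option autoImplicit false
set_option maxRecDepth 100000
set_option Elab.async false

namespace Cfsg.H6.Fi24

theorem p120 : allR (ptU img) 46080 384 = true := by decide +kernel

theorem p121 : allR (ptU img) 46464 384 = true := by decide +kernel

theorem p122 : allR (ptU img) 46848 384 = true := by decide +kernel

theorem p123 : allR (ptU img) 47232 384 = true := by decide +kernel

theorem p124 : allR (ptU img) 47616 384 = true := by decide +kernel

theorem p125 : allR (ptU img) 48000 384 = true := by decide +kernel

theorem p126 : allR (ptU img) 48384 384 = true := by decide +kernel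

theorem p127 : allR (ptU img) 48768 384 = true := by decide +kernel

theorem p128 : allR (ptU img) 49152 384 = true := by decide +kernel

theorem p129 : allR (ptU img) 49536 384 = true := by decide +kernel

end Cfsg.H6.Fi24
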