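import Cfsg.Agent.H6.Fi24.Tab2

set_option autoImplicit false
set_option maxRecDepth 100000
set_option Elab.async false

namespace Cfsg.H6.Fi24

theorem p130 : allR (ptU img) 49920 384 = true := by decide +kernel

theorem p131 : allR (ptU img) 50304 384 = true := by decide +kernel

theorem p132 : allR (ptU img) 50688 384 = true := by decide +kernel

theorem p133 : allR (ptU img) 51072 384 = true := by decide +kernel

theorem p134 : allR (ptU img) 51456 384 = true := by decide +kernel

theorem p135 : allR (ptU img) 51840 384 = true := by decide +kernel

theorem p136 : allR (ptU img) 52224 384 = true := by decide +kernel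

theorem p137 : allR (ptU img) 52608 384 = true := by decide +kernel

theorem p138 : allR (ptU img) 52992 384 = true := by decide +kernel

theorem p139 : allR (ptU img) 53376 384 = true := by decide +kernel

end Cfsg.H6.Fi24
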