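import Cfsg.Agent.H6.Fi24.Tab2

set_option autoImplicit false
set_option maxRecDepth 100000
set_option Elab.async false

namespace Cfsg.H6.Fi24

theorem p140 : allR (ptU img) 53760 384 = true := by decide +kernel

theorem p141 : allR (ptU img) 54144 384 = true := by decide +kernel

theorem p142 : allR (ptU img) 54528 384 = true := by decide +kernel

theorem p143 : allR (ptU img) 54912 384 = true := by decide +kernel

theorem p144 : allR (ptU img) 55296 384 = true := by decide +kernel

theorem p145 : allR (ptU img) 55680 384 = true := by decide +kernel

theorem p146 : allR (ptU img) 56064 384 = true := by decide +kernel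

theorem p147 : allR (ptU img) 56448 384 = true := by decide +kernel

theorem p148 : allR (ptU img) 56832 384 = true := by decide +kernel

theorem p149 : allR (ptU img) 57216 384 = true := by decide +kernel

end Cfsg.H6.Fi24
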