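import Cfsg.Agent.H6.Fi24.Tab2

set_option autoImplicit false
set_option maxRecDepth 100000
set_option Elab.async false

namespace Cfsg.H6.Fi24

theorem p150 : allR (ptU img) 57600 384 = true := by decide +kernel

theorem p151 : allR (ptU img) 57984 384 = true := by decide +kernel

theorem p152 : allR (ptU img) 58368 384 = true := by decide +kernel

theorem p153 : allR (ptU img) 58752 384 = true := by decide +kernel

theorem p154 : allR (ptU img) 59136 384 = true := by decide +kernel

theorem p155 : allR (ptU img) 59520 384 = true := by decide +kernel

theorem p156 : allR (ptU img) 59904 384 = true := by decide +kernel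

theorem p157 : allR (ptU img) 60288 384 = true := by decide +kernel

theorem p158 : allR (ptU img) 60672 384 = true := by decide +kernel

theorem p159 : allR (ptU img) 61056 384 = true := by decide +kernel

end Cfsg.H6.Fi24
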