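import Cfsg.Agent.H6.Fi24.Tab2

set_option autoImplicit false
set_option maxRecDepth 100000
set_option Elab.async false

namespace Cfsg.H6.Fi24

theorem p160 : allR (ptU img) 61440 384 = true := by decide +kernel

theorem p161 : allR (ptU img) 61824 384 = true := by decide +kernel

theorem p162 : allR (ptU img) 62208 384 = true := by decide +kernel

theorem p163 : allR (ptU img) 62592 384 = true := by decide +kernel

theorem p164 : allR (ptU img) 62976 384 = true := by decide +kernel

theorem p165 : allR (ptU img) 63360 384 = true := by decide +kernel

theorem p166 : allR (ptU img) 63744 384 = true := by decide +kernel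

theorem p167 : allR (ptU img) 64128 384 = true := by decide +kernel

theorem p168 : allR (ptU img) 64512 384 = true := by decide +kernel

theorem p169 : allR (ptU img) 64896 384 = true := by decide +kernel

end Cfsg.H6.Fi24
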