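import Cfsg.Agent.H6.Fi24.Tab2

set_option autoImplicit false
set_option maxRecDepth 100000
set_option Elab.async false

namespace Cfsg.H6.Fi24

theorem p170 : allR (ptU img) 65280 384 = true := by decide +kernel

theorem p171 : allR (ptU img) 65664 384 = true := by decide +kernel

theorem p172 : allR (ptU img) 66048 384 = true := by decide +kernel

theorem p173 : allR (ptU img) 66432 384 = true := by decide +kernel

theorem p174 : allR (ptU img) 66816 384 = true := by decide +kernel

theorem p175 : allR (ptU img) 67200 384 = true := by decide +kernel

theorem p176 : allR (ptU img) 67584 384 = true := by decide +kernel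

theorem p177 : allR (ptU img) 67968 384 = true := by decide +kernel

theorem p178 : allR (ptU img) 68352 384 = true := by decide +kernel

theorem p179 : allR (ptU img) 68736 384 = true := by decide +kernel

end Cfsg.H6.Fi24
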