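import Cfsg.Agent.H6.Fi24.Tab2

set_option autoImplicit false
set_option maxRecDepth 100000
set_option Elab.async false

namespace Cfsg.H6.Fi24

theorem p180 : allR (ptU img) 69120 384 = true := by decide +kernel

theorem p181 : allR (ptU img) 69504 384 = true := by decide +kernel

theorem p182 : allR (ptU img) 69888 384 = true := by decide +kernel

theorem p183 : allR (ptU img) 70272 384 = true := by decide +kernel

theorem p184 : allR (ptU img) 70656 384 = true := by decide +kernel

theorem p185 : allR (ptU img) 71040 384 = true := by decide +kernel

theorem p186 : allR (ptU img) 71424 384 = true := by decide +kernel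

theorem p187 : allR (ptU img) 71808 384 = true := by decide +kernel

theorem p188 : allR (ptU img) 72192 384 = true := by decide +kernel

theorem p189 : allR (ptU img) 72576 384 = true := by decide +kernel

end Cfsg.H6.Fi24
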