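import Cfsg.Agent.H6.Fi24.Tab2

set_option autoImplicit false
set_option maxRecDepth 100000
set_option Elab.async false

namespace Cfsg.H6.Fi24

theorem p190 : allR (ptU img) 72960 384 = true := by decide +kernel

theorem p191 : allR (ptU img) 73344 384 = true := by decide +kernel

theorem p192 : allR (ptU img) 73728 384 = true := by decide +kernel

theorem p193 : allR (ptU img) 74112 384 = true := by decide +kernel

theorem p194 : allR (ptU img) 74496 384 = true := by decide +kernel

theorem p195 : allR (ptU img) 74880 384 = true := by decide +kernel

theorem p196 : allR (ptU img) 75264 384 = true := by decide +kernel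

theorem p197 : allR (ptU img) 75648 384 = true := by decide +kernel

theorem p198 : allR (ptU img) 76032 384 = true := by decide +kernel

theorem p199 : allR (ptU img) 76416 384 = true := by decide +kernel

end Cfsg.H6.Fi24
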