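import Cfsg.Agent.H6.Fi24.Tab2

set_option autoImplicit false
set_option maxRecDepth 100000
set_option Elab.async false

namespace Cfsg.H6.Fi24

theorem p20 : allR (ptU img) 7680 384 = true := by decide +kernel

theorem p21 : allR (ptU img) 8064 384 = true := by decide +kernel

theorem p22 : allR (ptU img) 8448 384 = true := by decide +kernel

theorem p23 : allR (ptU img) 8832 384 = true := by decide +kernel

theorem p24 : allR (ptU img) 9216 384 = true := by decide +kernel

theorem p25 : allR (ptU img) 9600 384 = true := by decide +kernel

theorem p26 : allR (ptU img) 9984 384 = true := by decide +kernel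

theorem p27 : allR (ptU img) 10368 384 = true := by decide +kernel

theorem p28 : allR (ptU img) 10752 384 = true := by decide +kernel

theorem p29 : allR (ptU img) 11136 384 = true := by decide +kernel

end Cfsg.H6.Fi24
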