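import Cfsg.Agent.H6.Fi24.Tab2

set_option autoImplicit false
set_option maxRecDepth 100000
set_option Elab.async false

namespace Cfsg.H6.Fi24

theorem p200 : allR (ptU img) 76800 384 = true := by decide +kernel

theorem p201 : allR (ptU img) 77184 384 = true := by decide +kernel

theorem p202 : allR (ptU img) 77568 384 = true := by decide +kernel

theorem p203 : allR (ptU img) 77952 384 = true := by decide +kernel

theorem p204 : allR (ptU img) 78336 384 = true := by decide +kernel

theorem p205 : allR (ptU img) 78720 384 = true := by decide +kernel

theorem p206 : allR (ptU img) 79104 384 = true := by decide +kernel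

theorem p207 : allR (ptU img) 79488 384 = true := by decide +kernel

theorem p208 : allR (ptU img) 79872 384 = true := by decide +kernel

theorem p209 : allR (ptU img) 80256 384 = true := by decide +kernel

end Cfsg.H6.Fi24
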