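import Cfsg.Agent.H6.Fi24.Tab2

set_option autoImplicit false
set_option maxRecDepth 100000
set_option Elab.async false

namespace Cfsg.H6.Fi24

theorem p210 : allR (ptU img) 80640 384 = true := by decide +kernel

theorem p211 : allR (ptU img) 81024 384 = true := by decide +kernel

theorem p212 : allR (ptU img) 81408 384 = true := by decide +kernel

theorem p213 : allR (ptU img) 81792 384 = true := by decide +kernel

theorem p214 : allR (ptU img) 82176 384 = true := by decide +kernel

theorem p215 : allR (ptU img) 82560 384 = true := by decide +kernel

theorem p216 : allR (ptU img) 82944 384 = true := by decide +kernel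

theorem p217 : allR (ptU img) 83328 384 = true := by decide +kernel

theorem p218 : allR (ptU img) 83712 384 = true := by decide +kernel

theorem p219 : allR (ptU img) 84096 384 = true := by decide +kernel

end Cfsg.H6.Fi24
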