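import Cfsg.Agent.H6.Fi24.Tab2

set_option autoImplicit false
set_option maxRecDepth 100000
set_option Elab.async false

namespace Cfsg.H6.Fi24

theorem p220 : allR (ptU img) 84480 384 = true := by decide +kernel

theorem p221 : allR (ptU img) 84864 384 = true := by decide +kernel

theorem p222 : allR (ptU img) 85248 384 = true := by decide +kernel

theorem p223 : allR (ptU img) 85632 384 = true := by decide +kernel

theorem p224 : allR (ptU img) 86016 384 = true := by decide +kernel

theorem p225 : allR (ptU img) 86400 384 = true := by decide +kernel

theorem p226 : allR (ptU img) 86784 384 = true := by decide +kernel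

theorem p227 : allR (ptU img) 87168 384 = true := by decide +kernel

theorem p228 : allR (ptU img) 87552 384 = true := by decide +kernel

theorem p229 : allR (ptU img) 87936 384 = true := by decide +kernel

end Cfsg.H6.Fi24
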