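import Cfsg.Agent.H6.Fi24.Tab2

set_option autoImplicit false
set_option maxRecDepth 100000
set_option Elab.async false

namespace Cfsg.H6.Fi24

theorem p230 : allR (ptU img) 88320 384 = true := by decide +kernel

theorem p231 : allR (ptU img) 88704 384 = true := by decide +kernel

theorem p232 : allR (ptU img) 89088 384 = true := by decide +kernel

theorem p233 : allR (ptU img) 89472 384 = true := by decide +kernel

theorem p234 : allR (ptU img) 89856 384 = true := by decide +kernel

theorem p235 : allR (ptU img) 90240 384 = true := by decide +kernel

theorem p236 : allR (ptU img) 90624 384 = true := by decide +kernel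

theorem p237 : allR (ptU img) 91008 384 = true := by decide +kernel

theorem p238 : allR (ptU img) 91392 384 = true := by decide +kernel

theorem p239 : allR (ptU img) 91776 384 = true := by decide +kernel

end Cfsg.H6.Fi24
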