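import Cfsg.Agent.H6.Fi24.Tab2

set_option autoImplicit false
set_option maxRecDepth 100000
set_option Elab.async false

namespace Cfsg.H6.Fi24

theorem p240 : allR (ptU img) 92160 384 = true := by decide +kernel

theorem p241 : allR (ptU img) 92544 384 = true := by decide +kernel

theorem p242 : allR (ptU img) 92928 384 = true := by decide +kernel

theorem p243 : allR (ptU img) 93312 384 = true := by decide +kernel

theorem p244 : allR (ptU img) 93696 384 = true := by decide +kernel

theorem p245 : allR (ptU img) 94080 384 = true := by decide +kernel

theorem p246 : allR (ptU img) 94464 384 = true := by decide +kernel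

theorem p247 : allR (ptU img) 94848 384 = true := by decide +kernel

theorem p248 : allR (ptU img) 95232 384 = true := by decide +kernel

theorem p249 : allR (ptU img) 95616 384 = true := by decide +kernel

end Cfsg.H6.Fi24
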