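import Cfsg.Agent.H6.Fi24.Tab2

set_option autoImplicit false
set_option maxRecDepth 100000
set_option Elab.async false

namespace Cfsg.H6.Fi24

theorem p250 : allR (ptU img) 96000 384 = true := by decide +kernel

theorem p251 : allR (ptU img) 96384 384 = true := by decide +kernel

theorem p252 : allR (ptU img) 96768 384 = true := by decide +kernel

theorem p253 : allR (ptU img) 97152 384 = true := by decide +kernel

theorem p254 : allR (ptU img) 97536 384 = true := by decide +kernel

theorem p255 : allR (ptU img) 97920 384 = true := by decide +kernel

theorem p256 : allR (ptU img) 98304 384 = true := by decide +kernel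

theorem p257 : allR (ptU img) 98688 384 = true := by decide +kernel

theorem p258 : allR (ptU img) 99072 384 = true := by decide +kernel

theorem p259 : allR (ptU img) 99456 384 = true := by decide +kernel

end Cfsg.H6.Fi24
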