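import Cfsg.Agent.H6.Fi24.Tab2

set_option autoImplicit false
set_option maxRecDepth 100000
set_option Elab.async false

namespace Cfsg.H6.Fi24

theorem p260 : allR (ptU img) 99840 384 = true := by decide +kernel

theorem p261 : allR (ptU img) 100224 384 = true := by decide +kernel

theorem p262 : allR (ptU img) 100608 384 = true := by decide +kernel

theorem p263 : allR (ptU img) 100992 384 = true := by decide +kernel

theorem p264 : allR (ptU img) 101376 384 = true := by decide +kernel

theorem p265 : allR (ptU img) 101760 384 = true := by decide +kernel

theorem p266 : allR (ptU img) 102144 384 = true := by decide +kernel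

theorem p267 : allR (ptU img) 102528 384 = true := by decide +kernel

theorem p268 : allR (ptU img) 102912 384 = true := by decide +kernel

theorem p269 : allR (ptU img) 103296 384 = true := by decide +kernel

end Cfsg.H6.Fi24
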