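import Cfsg.Agent.H6.Fi24.Tab2

set_option autoImplicit false
set_option maxRecDepth 100000
set_option Elab.async false

namespace Cfsg.H6.Fi24

theorem p270 : allR (ptU img) 103680 384 = true := by decide +kernel

theorem p271 : allR (ptU img) 104064 384 = true := by decide +kernel

theorem p272 : allR (ptU img) 104448 384 = true := by decide +kernel

theorem p273 : allR (ptU img) 104832 384 = true := by decide +kernel

theorem p274 : allR (ptU img) 105216 384 = true := by decide +kernel

theorem p275 : allR (ptU img) 105600 384 = true := by decide +kernel

theorem p276 : allR (ptU img) 105984 384 = true := by decide +kernel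

theorem p277 : allR (ptU img) 106368 384 = true := by decide +kernel

theorem p278 : allR (ptU img) 106752 384 = true := by decide +kernel

theorem p279 : allR (ptU img) 107136 384 = true := by decide +kernel

end Cfsg.H6.Fi24
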