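import Cfsg.Agent.H6.Fi24.Tab2

set_option autoImplicit false
set_option maxRecDepth 100000
set_option Elab.async false

namespace Cfsg.H6.Fi24

theorem p280 : allR (ptU img) 107520 384 = true := by decide +kernel

theorem p281 : allR (ptU img) 107904 384 = true := by decide +kernel

theorem p282 : allR (ptU img) 108288 384 = true := by decide +kernel

theorem p283 : allR (ptU img) 108672 384 = true := by decide +kernel

theorem p284 : allR (ptU img) 109056 384 = true := by decide +kernel

theorem p285 : allR (ptU img) 109440 384 = true := by decide +kernel

theorem p286 : allR (ptU img) 109824 384 = true := by decide +kernel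

theorem p287 : allR (ptU img) 110208 384 = true := by decide +kernel

theorem p288 : allR (ptU img) 110592 384 = true := by decide +kernel

theorem p289 : allR (ptU img) 110976 384 = true := by decide +kernel

end Cfsg.H6.Fi24
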