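import Cfsg.Agent.H6.Fi24.Tab2

set_option autoImplicit false
set_option maxRecDepth 100000
set_option Elab.async false

namespace Cfsg.H6.Fi24

theorem p290 : allR (ptU img) 111360 384 = true := by decide +kernel

theorem p291 : allR (ptU img) 111744 384 = true := by decide +kernel

theorem p292 : allR (ptU img) 112128 384 = true := by decide +kernel

theorem p293 : allR (ptU img) 112512 384 = true := by decide +kernel

theorem p294 : allR (ptU img) 112896 384 = true := by decide +kernel

theorem p295 : allR (ptU img) 113280 384 = true := by decide +kernel

theorem p296 : allR (ptU img) 113664 384 = true := by decide +kernel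

theorem p297 : allR (ptU img) 114048 384 = true := by decide +kernel

theorem p298 : allR (ptU img) 114432 384 = true := by decide +kernel

theorem p299 : allR (ptU img) 114816 384 = true := by decide +kernel

end Cfsg.H6.Fi24
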