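import Cfsg.Agent.H6.Fi24.Tab2

set_option autoImplicit false
set_option maxRecDepth 100000
set_option Elab.async false

namespace Cfsg.H6.Fi24

theorem p30 : allR (ptU img) 11520 384 = true := by decide +kernel

theorem p31 : allR (ptU img) 11904 384 = true := by decide +kernel

theorem p32 : allR (ptU img) 12288 384 = true := by decide +kernel

theorem p33 : allR (ptU img) 12672 384 = true := by decide +kernel

theorem p34 : allR (ptU img) 13056 384 = true := by decide +kernel

theorem p35 : allR (ptU img) 13440 384 = true := by decide +kernel

theorem p36 : allR (ptU img) 13824 384 = true := by decide +kernel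

theorem p37 : allR (ptU img) 14208 384 = true := by decide +kernel

theorem p38 : allR (ptU img) 14592 384 = true := by decide +kernel

theorem p39 : allR (ptU img) 14976 384 = true := by decide +kernel

end Cfsg.H6.Fi24
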