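import Cfsg.Agent.H6.Fi24.Tab2

set_option autoImplicit false
set_option maxRecDepth 100000
set_option Elab.async false

namespace Cfsg.H6.Fi24

theorem p300 : allR (ptU img) 115200 384 = true := by decide +kernel

theorem p301 : allR (ptU img) 115584 384 = true := by decide +kernel

theorem p302 : allR (ptU img) 115968 384 = true := by decide +kernel

theorem p303 : allR (ptU img) 116352 384 = true := by decide +kernel

theorem p304 : allR (ptU img) 116736 384 = true := by decide +kernel

theorem p305 : allR (ptU img) 117120 384 = true := by decide +kernel

theorem p306 : allR (ptU img) 117504 384 = true := by decide +kernel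

theorem p307 : allR (ptU img) 117888 384 = true := by decide +kernel

theorem p308 : allR (ptU img) 118272 384 = true := by decide +kernel

theorem p309 : allR (ptU img) 118656 384 = true := by decide +kernel

end Cfsg.H6.Fi24
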