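import Cfsg.Agent.H6.Fi24.Tab2

set_option autoImplicit false
set_option maxRecDepth 100000
set_option Elab.async false

namespace Cfsg.H6.Fi24

theorem p310 : allR (ptU img) 119040 384 = true := by decide +kernel

theorem p311 : allR (ptU img) 119424 384 = true := by decide +kernel

theorem p312 : allR (ptU img) 119808 384 = true := by decide +kernel

theorem p313 : allR (ptU img) 120192 384 = true := by decide +kernel

theorem p314 : allR (ptU img) 120576 384 = true := by decide +kernel

theorem p315 : allR (ptU img) 120960 384 = true := by decide +kernel

theorem p316 : allR (ptU img) 121344 384 = true := by decide +kernel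

theorem p317 : allR (ptU img) 121728 384 = true := by decide +kernel

theorem p318 : allR (ptU img) 122112 384 = true := by decide +kernel

theorem p319 : allR (ptU img) 122496 384 = true := by decide +kernel

end Cfsg.H6.Fi24
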