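import Cfsg.Agent.H6.Fi24.Tab2

set_option autoImplicit false
set_option maxRecDepth 100000
set_option Elab.async false

namespace Cfsg.H6.Fi24

theorem p320 : allR (ptU img) 122880 384 = true := by decide +kernel

theorem p321 : allR (ptU img) 123264 384 = true := by decide +kernel

theorem p322 : allR (ptU img) 123648 384 = true := by decide +kernel

theorem p323 : allR (ptU img) 124032 384 = true := by decide +kernel

theorem p324 : allR (ptU img) 124416 384 = true := by decide +kernel

theorem p325 : allR (ptU img) 124800 384 = true := by decide +kernel

theorem p326 : allR (ptU img) 125184 384 = true := by decide +kernel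

theorem p327 : allR (ptU img) 125568 384 = true := by decide +kernel

theorem p328 : allR (ptU img) 125952 384 = true := by decide +kernel

theorem p329 : allR (ptU img) 126336 384 = true := by decide +kernel

end Cfsg.H6.Fi24
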