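import Cfsg.Agent.H6.Fi24.Tab2

set_option autoImplicit false
set_option maxRecDepth 100000
set_option Elab.async false

namespace Cfsg.H6.Fi24

theorem p330 : allR (ptU img) 126720 384 = true := by decide +kernel

theorem p331 : allR (ptU img) 127104 384 = true := by decide +kernel

theorem p332 : allR (ptU img) 127488 384 = true := by decide +kernel

theorem p333 : allR (ptU img) 127872 384 = true := by decide +kernel

theorem p334 : allR (ptU img) 128256 384 = true := by decide +kernel

theorem p335 : allR (ptU img) 128640 384 = true := by decide +kernel

theorem p336 : allR (ptU img) 129024 384 = true := by decide +kernel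

theorem p337 : allR (ptU img) 129408 384 = true := by decide +kernel

theorem p338 : allR (ptU img) 129792 384 = true := by decide +kernel

theorem p339 : allR (ptU img) 130176 384 = true := by decide +kernel

end Cfsg.H6.Fi24
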