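import Cfsg.Agent.H6.Fi24.Tab2

set_option autoImplicit false
set_option maxRecDepth 100000
set_option Elab.async false

namespace Cfsg.H6.Fi24

theorem p340 : allR (ptU img) 130560 384 = true := by decide +kernel

theorem p341 : allR (ptU img) 130944 384 = true := by decide +kernel

theorem p342 : allR (ptU img) 131328 384 = true := by decide +kernel

theorem p343 : allR (ptU img) 131712 384 = true := by decide +kernel

theorem p344 : allR (ptU img) 132096 384 = true := by decide +kernel

theorem p345 : allR (ptU img) 132480 384 = true := by decide +kernel

theorem p346 : allR (ptU img) 132864 384 = true := by decide +kernel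

theorem p347 : allR (ptU img) 133248 384 = true := by decide +kernel

theorem p348 : allR (ptU img) 133632 384 = true := by decide +kernel

theorem p349 : allR (ptU img) 134016 384 = true := by decide +kernel

end Cfsg.H6.Fi24
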