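import Cfsg.Agent.H6.Fi24.Tab2

set_option autoImplicit false
set_option maxRecDepth 100000
set_option Elab.async false

namespace Cfsg.H6.Fi24

theorem p350 : allR (ptU img) 134400 384 = true := by decide +kernel

theorem p351 : allR (ptU img) 134784 384 = true := by decide +kernel

theorem p352 : allR (ptU img) 135168 384 = true := by decide +kernel

theorem p353 : allR (ptU img) 135552 384 = true := by decide +kernel

theorem p354 : allR (ptU img) 135936 384 = true := by decide +kernel

theorem p355 : allR (ptU img) 136320 384 = true := by decide +kernel

theorem p356 : allR (ptU img) 136704 384 = true := by decide +kernel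

theorem p357 : allR (ptU img) 137088 384 = true := by decide +kernel

theorem p358 : allR (ptU img) 137472 384 = true := by decide +kernel

theorem p359 : allR (ptU img) 137856 384 = true := by decide +kernel

end Cfsg.H6.Fi24
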