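import Cfsg.Agent.H6.Fi24.Tab2

set_option autoImplicit false
set_option maxRecDepth 100000
set_option Elab.async false

namespace Cfsg.H6.Fi24

theorem p360 : allR (ptU img) 138240 384 = true := by decide +kernel

theorem p361 : allR (ptU img) 138624 384 = true := by decide +kernel

theorem p362 : allR (ptU img) 139008 384 = true := by decide +kernel

theorem p363 : allR (ptU img) 139392 384 = true := by decide +kernel

theorem p364 : allR (ptU img) 139776 384 = true := by decide +kernel

theorem p365 : allR (ptU img) 140160 384 = true := by decide +kernel

theorem p366 : allR (ptU img) 140544 384 = true := by decide +kernel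

theorem p367 : allR (ptU img) 140928 384 = true := by decide +kernel

theorem p368 : allR (ptU img) 141312 384 = true := by decide +kernel

theorem p369 : allR (ptU img) 141696 384 = true := by decide +kernel

end Cfsg.H6.Fi24
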