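import Cfsg.Agent.H6.Fi24.Tab2

set_option autoImplicit false
set_option maxRecDepth 100000
set_option Elab.async false

namespace Cfsg.H6.Fi24

theorem p370 : allR (ptU img) 142080 384 = true := by decide +kernel

theorem p371 : allR (ptU img) 142464 384 = true := by decide +kernel

theorem p372 : allR (ptU img) 142848 384 = true := by decide +kernel

theorem p373 : allR (ptU img) 143232 384 = true := by decide +kernel

theorem p374 : allR (ptU img) 143616 384 = true := by decide +kernel

theorem p375 : allR (ptU img) 144000 384 = true := by decide +kernel

theorem p376 : allR (ptU img) 144384 384 = true := by decide +kernel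

theorem p377 : allR (ptU img) 144768 384 = true := by decide +kernel

theorem p378 : allR (ptU img) 145152 384 = true := by decide +kernel

theorem p379 : allR (ptU img) 145536 384 = true := by decide +kernel

end Cfsg.H6.Fi24
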