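import Cfsg.Agent.H6.Fi24.Tab2

set_option autoImplicit false
set_option maxRecDepth 100000
set_option Elab.async false

namespace Cfsg.H6.Fi24

theorem p380 : allR (ptU img) 145920 384 = true := by decide +kernel

theorem p381 : allR (ptU img) 146304 384 = true := by decide +kernel

theorem p382 : allR (ptU img) 146688 384 = true := by decide +kernel

theorem p383 : allR (ptU img) 147072 384 = true := by decide +kernel

theorem p384 : allR (ptU img) 147456 384 = true := by decide +kernel

theorem p385 : allR (ptU img) 147840 384 = true := by decide +kernel

theorem p386 : allR (ptU img) 148224 384 = true := by decide +kernel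

theorem p387 : allR (ptU img) 148608 384 = true := by decide +kernel

theorem p388 : allR (ptU img) 148992 384 = true := by decide +kernel

theorem p389 : allR (ptU img) 149376 384 = true := by decide +kernel

end Cfsg.H6.Fi24
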