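import Cfsg.Agent.H6.Fi24.Tab2

set_option autoImplicit false
set_option maxRecDepth 100000
set_option Elab.async false

namespace Cfsg.H6.Fi24

theorem p390 : allR (ptU img) 149760 384 = true := by decide +kernel

theorem p391 : allR (ptU img) 150144 384 = true := by decide +kernel

theorem p392 : allR (ptU img) 150528 384 = true := by decide +kernel

theorem p393 : allR (ptU img) 150912 384 = true := by decide +kernel

theorem p394 : allR (ptU img) 151296 384 = true := by decide +kernel

theorem p395 : allR (ptU img) 151680 384 = true := by decide +kernel

theorem p396 : allR (ptU img) 152064 384 = true := by decide +kernel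

theorem p397 : allR (ptU img) 152448 384 = true := by decide +kernel

theorem p398 : allR (ptU img) 152832 384 = true := by decide +kernel

theorem p399 : allR (ptU img) 153216 384 = true := by decide +kernel

end Cfsg.H6.Fi24
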