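import Cfsg.Agent.H6.Fi24.Tab2

set_option autoImplicit false
set_option maxRecDepth 100000
set_option Elab.async false

namespace Cfsg.H6.Fi24

theorem p40 : allR (ptU img) 15360 384 = true := by decide +kernel

theorem p41 : allR (ptU img) 15744 384 = true := by decide +kernel

theorem p42 : allR (ptU img) 16128 384 = true := by decide +kernel

theorem p43 : allR (ptU img) 16512 384 = true := by decide +kernel

theorem p44 : allR (ptU img) 16896 384 = true := by decide +kernel

theorem p45 : allR (ptU img) 17280 384 = true := by decide +kernel

theorem p46 : allR (ptU img) 17664 384 = true := by decide +kernel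

theorem p47 : allR (ptU img) 18048 384 = true := by decide +kernel

theorem p48 : allR (ptU img) 18432 384 = true := by decide +kernel

theorem p49 : allR (ptU img) 18816 384 = true := by decide +kernel

end Cfsg.H6.Fi24
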