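import Cfsg.Agent.H6.Fi24.Tab2

set_option autoImplicit false
set_option maxRecDepth 100000
set_option Elab.async false

namespace Cfsg.H6.Fi24

theorem p400 : allR (ptU img) 153600 384 = true := by decide +kernel

theorem p401 : allR (ptU img) 153984 384 = true := by decide +kernel

theorem p402 : allR (ptU img) 154368 384 = true := by decide +kernel

theorem p403 : allR (ptU img) 154752 384 = true := by decide +kernel

theorem p404 : allR (ptU img) 155136 384 = true := by decide +kernel

theorem p405 : allR (ptU img) 155520 384 = true := by decide +kernel

theorem p406 : allR (ptU img) 155904 384 = true := by decide +kernel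

theorem p407 : allR (ptU img) 156288 384 = true := by decide +kernel

theorem p408 : allR (ptU img) 156672 384 = true := by decide +kernel

theorem p409 : allR (ptU img) 157056 384 = true := by decide +kernel

end Cfsg.H6.Fi24
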