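import Cfsg.Agent.H6.Fi24.Tab2

set_option autoImplicit false
set_option maxRecDepth 100000
set_option Elab.async false

namespace Cfsg.H6.Fi24

theorem p410 : allR (ptU img) 157440 384 = true := by decide +kernel

theorem p411 : allR (ptU img) 157824 384 = true := by decide +kernel

theorem p412 : allR (ptU img) 158208 384 = true := by decide +kernel

theorem p413 : allR (ptU img) 158592 384 = true := by decide +kernel

theorem p414 : allR (ptU img) 158976 384 = true := by decide +kernel

theorem p415 : allR (ptU img) 159360 384 = true := by decide +kernel

theorem p416 : allR (ptU img) 159744 384 = true := by decide +kernel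

theorem p417 : allR (ptU img) 160128 384 = true := by decide +kernel

theorem p418 : allR (ptU img) 160512 384 = true := by decide +kernel

theorem p419 : allR (ptU img) 160896 384 = true := by decide +kernel

end Cfsg.H6.Fi24
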