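import Cfsg.Agent.H6.Fi24.Tab2

set_option autoImplicit false
set_option maxRecDepth 100000
set_option Elab.async false

namespace Cfsg.H6.Fi24

theorem p420 : allR (ptU img) 161280 384 = true := by decide +kernel

theorem p421 : allR (ptU img) 161664 384 = true := by decide +kernel

theorem p422 : allR (ptU img) 162048 384 = true := by decide +kernel

theorem p423 : allR (ptU img) 162432 384 = true := by decide +kernel

theorem p424 : allR (ptU img) 162816 384 = true := by decide +kernel

theorem p425 : allR (ptU img) 163200 384 = true := by decide +kernel

theorem p426 : allR (ptU img) 163584 384 = true := by decide +kernel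

theorem p427 : allR (ptU img) 163968 384 = true := by decide +kernel

theorem p428 : allR (ptU img) 164352 384 = true := by decide +kernel

theorem p429 : allR (ptU img) 164736 384 = true := by decide +kernel

end Cfsg.H6.Fi24
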