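import Cfsg.Agent.H6.Fi24.Tab2

set_option autoImplicit false
set_option maxRecDepth 100000
set_option Elab.async false

namespace Cfsg.H6.Fi24

theorem p430 : allR (ptU img) 165120 384 = true := by decide +kernel

theorem p431 : allR (ptU img) 165504 384 = true := by decide +kernel

theorem p432 : allR (ptU img) 165888 384 = true := by decide +kernel

theorem p433 : allR (ptU img) 166272 384 = true := by decide +kernel

theorem p434 : allR (ptU img) 166656 384 = true := by decide +kernel

theorem p435 : allR (ptU img) 167040 384 = true := by decide +kernel

theorem p436 : allR (ptU img) 167424 384 = true := by decide +kernel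

theorem p437 : allR (ptU img) 167808 384 = true := by decide +kernel

theorem p438 : allR (ptU img) 168192 384 = true := by decide +kernel

theorem p439 : allR (ptU img) 168576 384 = true := by decide +kernel

end Cfsg.H6.Fi24
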