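import Cfsg.Agent.H6.Fi24.Tab2

set_option autoImplicit false
set_option maxRecDepth 100000
set_option Elab.async false

namespace Cfsg.H6.Fi24

theorem p440 : allR (ptU img) 168960 384 = true := by decide +kernel

theorem p441 : allR (ptU img) 169344 384 = true := by decide +kernel

theorem p442 : allR (ptU img) 169728 384 = true := by decide +kernel

theorem p443 : allR (ptU img) 170112 384 = true := by decide +kernel

theorem p444 : allR (ptU img) 170496 384 = true := by decide +kernel

theorem p445 : allR (ptU img) 170880 384 = true := by decide +kernel

theorem p446 : allR (ptU img) 171264 384 = true := by decide +kernel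

theorem p447 : allR (ptU img) 171648 384 = true := by decide +kernel

theorem p448 : allR (ptU img) 172032 384 = true := by decide +kernel

theorem p449 : allR (ptU img) 172416 384 = true := by decide +kernel

end Cfsg.H6.Fi24
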