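import Cfsg.Agent.H6.Fi24.Tab2

set_option autoImplicit false
set_option maxRecDepth 100000
set_option Elab.async false

namespace Cfsg.H6.Fi24

theorem p450 : allR (ptU img) 172800 384 = true := by decide +kernel

theorem p451 : allR (ptU img) 173184 384 = true := by decide +kernel

theorem p452 : allR (ptU img) 173568 384 = true := by decide +kernel

theorem p453 : allR (ptU img) 173952 384 = true := by decide +kernel

theorem p454 : allR (ptU img) 174336 384 = true := by decide +kernel

theorem p455 : allR (ptU img) 174720 384 = true := by decide +kernel

theorem p456 : allR (ptU img) 175104 384 = true := by decide +kernel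

theorem p457 : allR (ptU img) 175488 384 = true := by decide +kernel

theorem p458 : allR (ptU img) 175872 384 = true := by decide +kernel

theorem p459 : allR (ptU img) 176256 384 = true := by decide +kernel

end Cfsg.H6.Fi24
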