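import Cfsg.Agent.H6.Fi24.Tab2

set_option autoImplicit false
set_option maxRecDepth 100000
set_option Elab.async false

namespace Cfsg.H6.Fi24

theorem p460 : allR (ptU img) 176640 384 = true := by decide +kernel

theorem p461 : allR (ptU img) 177024 384 = true := by decide +kernel

theorem p462 : allR (ptU img) 177408 384 = true := by decide +kernel

theorem p463 : allR (ptU img) 177792 384 = true := by decide +kernel

theorem p464 : allR (ptU img) 178176 384 = true := by decide +kernel

theorem p465 : allR (ptU img) 178560 384 = true := by decide +kernel

theorem p466 : allR (ptU img) 178944 384 = true := by decide +kernel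

theorem p467 : allR (ptU img) 179328 384 = true := by decide +kernel

theorem p468 : allR (ptU img) 179712 384 = true := by decide +kernel

theorem p469 : allR (ptU img) 180096 384 = true := by decide +kernel

end Cfsg.H6.Fi24
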