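import Cfsg.Agent.H6.Fi24.Tab2

set_option autoImplicit false
set_option maxRecDepth 100000
set_option Elab.async false

namespace Cfsg.H6.Fi24

theorem p470 : allR (ptU img) 180480 384 = true := by decide +kernel

theorem p471 : allR (ptU img) 180864 384 = true := by decide +kernel

theorem p472 : allR (ptU img) 181248 384 = true := by decide +kernel

theorem p473 : allR (ptU img) 181632 384 = true := by decide +kernel

theorem p474 : allR (ptU img) 182016 384 = true := by decide +kernel

theorem p475 : allR (ptU img) 182400 384 = true := by decide +kernel

theorem p476 : allR (ptU img) 182784 384 = true := by decide +kernel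

theorem p477 : allR (ptU img) 183168 384 = true := by decide +kernel

theorem p478 : allR (ptU img) 183552 384 = true := by decide +kernel

theorem p479 : allR (ptU img) 183936 384 = true := by decide +kernel

end Cfsg.H6.Fi24
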