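import Cfsg.Agent.H6.Fi24.Tab2

set_option autoImplicit false
set_option maxRecDepth 100000
set_option Elab.async false

namespace Cfsg.H6.Fi24

theorem p480 : allR (ptU img) 184320 384 = true := by decide +kernel

theorem p481 : allR (ptU img) 184704 384 = true := by decide +kernel

theorem p482 : allR (ptU img) 185088 384 = true := by decide +kernel

theorem p483 : allR (ptU img) 185472 384 = true := by decide +kernel

theorem p484 : allR (ptU img) 185856 384 = true := by decide +kernel

theorem p485 : allR (ptU img) 186240 384 = true := by decide +kernel

theorem p486 : allR (ptU img) 186624 384 = true := by decide +kernel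

theorem p487 : allR (ptU img) 187008 384 = true := by decide +kernel

theorem p488 : allR (ptU img) 187392 384 = true := by decide +kernel

theorem p489 : allR (ptU img) 187776 384 = true := by decide +kernel

end Cfsg.H6.Fi24
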