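import Cfsg.Agent.H6.Fi24.Tab2

set_option autoImplicit false
set_option maxRecDepth 100000
set_option Elab.async false

namespace Cfsg.H6.Fi24

theorem p490 : allR (ptU img) 188160 384 = true := by decide +kernel

theorem p491 : allR (ptU img) 188544 384 = true := by decide +kernel

theorem p492 : allR (ptU img) 188928 384 = true := by decide +kernel

theorem p493 : allR (ptU img) 189312 384 = true := by decide +kernel

theorem p494 : allR (ptU img) 189696 384 = true := by decide +kernel

theorem p495 : allR (ptU img) 190080 384 = true := by decide +kernel

theorem p496 : allR (ptU img) 190464 384 = true := by decide +kernel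

theorem p497 : allR (ptU img) 190848 384 = true := by decide +kernel

theorem p498 : allR (ptU img) 191232 384 = true := by decide +kernel

theorem p499 : allR (ptU img) 191616 384 = true := by decide +kernel

end Cfsg.H6.Fi24
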