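import Cfsg.Agent.H6.Fi24.Tab2

set_option autoImplicit false
set_option maxRecDepth 100000
set_option Elab.async false

namespace Cfsg.H6.Fi24

theorem p50 : allR (ptU img) 19200 384 = true := by decide +kernel

theorem p51 : allR (ptU img) 19584 384 = true := by decide +kernel

theorem p52 : allR (ptU img) 19968 384 = true := by decide +kernel

theorem p53 : allR (ptU img) 20352 384 = true := by decide +kernel

theorem p54 : allR (ptU img) 20736 384 = true := by decide +kernel

theorem p55 : allR (ptU img) 21120 384 = true := by decide +kernel

theorem p56 : allR (ptU img) 21504 384 = true := by decide +kernel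

theorem p57 : allR (ptU img) 21888 384 = true := by decide +kernel

theorem p58 : allR (ptU img) 22272 384 = true := by decide +kernel

theorem p59 : allR (ptU img) 22656 384 = true := by decide +kernel

end Cfsg.H6.Fi24
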