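import Cfsg.Agent.H6.Fi24.Tab2

set_option autoImplicit false
set_option maxRecDepth 100000
set_option Elab.async false

namespace Cfsg.H6.Fi24

theorem p500 : allR (ptU img) 192000 384 = true := by decide +kernel

theorem p501 : allR (ptU img) 192384 384 = true := by decide +kernel

theorem p502 : allR (ptU img) 192768 384 = true := by decide +kernel

theorem p503 : allR (ptU img) 193152 384 = true := by decide +kernel

theorem p504 : allR (ptU img) 193536 384 = true := by decide +kernel

theorem p505 : allR (ptU img) 193920 384 = true := by decide +kernel

theorem p506 : allR (ptU img) 194304 384 = true := by decide +kernel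

theorem p507 : allR (ptU img) 194688 384 = true := by decide +kernel

theorem p508 : allR (ptU img) 195072 384 = true := by decide +kernel

theorem p509 : allR (ptU img) 195456 384 = true := by decide +kernel

end Cfsg.H6.Fi24
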