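import Cfsg.Agent.H6.Fi24.Tab2

set_option autoImplicit false
set_option maxRecDepth 100000
set_option Elab.async false

namespace Cfsg.H6.Fi24

theorem p510 : allR (ptU img) 195840 384 = true := by decide +kernel

theorem p511 : allR (ptU img) 196224 384 = true := by decide +kernel

theorem p512 : allR (ptU img) 196608 384 = true := by decide +kernel

theorem p513 : allR (ptU img) 196992 384 = true := by decide +kernel

theorem p514 : allR (ptU img) 197376 384 = true := by decide +kernel

theorem p515 : allR (ptU img) 197760 384 = true := by decide +kernel

theorem p516 : allR (ptU img) 198144 384 = true := by decide +kernel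

theorem p517 : allR (ptU img) 198528 384 = true := by decide +kernel

theorem p518 : allR (ptU img) 198912 384 = true := by decide +kernel

theorem p519 : allR (ptU img) 199296 384 = true := by decide +kernel

end Cfsg.H6.Fi24
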