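import Cfsg.Agent.H6.Fi24.Tab2

set_option autoImplicit false
set_option maxRecDepth 100000
set_option Elab.async false

namespace Cfsg.H6.Fi24

theorem p520 : allR (ptU img) 199680 384 = true := by decide +kernel

theorem p521 : allR (ptU img) 200064 384 = true := by decide +kernel

theorem p522 : allR (ptU img) 200448 384 = true := by decide +kernel

theorem p523 : allR (ptU img) 200832 384 = true := by decide +kernel

theorem p524 : allR (ptU img) 201216 384 = true := by decide +kernel

theorem p525 : allR (ptU img) 201600 384 = true := by decide +kernel

theorem p526 : allR (ptU img) 201984 384 = true := by decide +kernel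

theorem p527 : allR (ptU img) 202368 384 = true := by decide +kernel

theorem p528 : allR (ptU img) 202752 384 = true := by decide +kernel

theorem p529 : allR (ptU img) 203136 384 = true := by decide +kernel

end Cfsg.H6.Fi24
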