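import Cfsg.Agent.H6.Fi24.Tab2

set_option autoImplicit false
set_option maxRecDepth 100000
set_option Elab.async false

namespace Cfsg.H6.Fi24

theorem p530 : allR (ptU img) 203520 384 = true := by decide +kernel

theorem p531 : allR (ptU img) 203904 384 = true := by decide +kernel

theorem p532 : allR (ptU img) 204288 384 = true := by decide +kernel

theorem p533 : allR (ptU img) 204672 384 = true := by decide +kernel

theorem p534 : allR (ptU img) 205056 384 = true := by decide +kernel

theorem p535 : allR (ptU img) 205440 384 = true := by decide +kernel

theorem p536 : allR (ptU img) 205824 384 = true := by decide +kernel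

theorem p537 : allR (ptU img) 206208 384 = true := by decide +kernel

theorem p538 : allR (ptU img) 206592 384 = true := by decide +kernel

theorem p539 : allR (ptU img) 206976 384 = true := by decide +kernel

end Cfsg.H6.Fi24
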