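import Cfsg.Agent.H6.Fi24.Tab2

set_option autoImplicit false
set_option maxRecDepth 100000
set_option Elab.async false

namespace Cfsg.H6.Fi24

theorem p540 : allR (ptU img) 207360 384 = true := by decide +kernel

theorem p541 : allR (ptU img) 207744 384 = true := by decide +kernel

theorem p542 : allR (ptU img) 208128 384 = true := by decide +kernel

theorem p543 : allR (ptU img) 208512 384 = true := by decide +kernel

theorem p544 : allR (ptU img) 208896 384 = true := by decide +kernel

theorem p545 : allR (ptU img) 209280 384 = true := by decide +kernel

theorem p546 : allR (ptU img) 209664 384 = true := by decide +kernel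

theorem p547 : allR (ptU img) 210048 384 = true := by decide +kernel

theorem p548 : allR (ptU img) 210432 384 = true := by decide +kernel

theorem p549 : allR (ptU img) 210816 384 = true := by decide +kernel

end Cfsg.H6.Fi24
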