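import Cfsg.Agent.H6.Fi24.Tab2

set_option autoImplicit false
set_option maxRecDepth 100000
set_option Elab.async false

namespace Cfsg.H6.Fi24

theorem p550 : allR (ptU img) 211200 384 = true := by decide +kernel

theorem p551 : allR (ptU img) 211584 384 = true := by decide +kernel

theorem p552 : allR (ptU img) 211968 384 = true := by decide +kernel

theorem p553 : allR (ptU img) 212352 384 = true := by decide +kernel

theorem p554 : allR (ptU img) 212736 384 = true := by decide +kernel

theorem p555 : allR (ptU img) 213120 384 = true := by decide +kernel

theorem p556 : allR (ptU img) 213504 384 = true := by decide +kernel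

theorem p557 : allR (ptU img) 213888 384 = true := by decide +kernel

theorem p558 : allR (ptU img) 214272 384 = true := by decide +kernel

theorem p559 : allR (ptU img) 214656 384 = true := by decide +kernel

end Cfsg.H6.Fi24
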