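import Cfsg.Agent.H6.Fi24.Tab2

set_option autoImplicit false
set_option maxRecDepth 100000
set_option Elab.async false

namespace Cfsg.H6.Fi24

theorem p560 : allR (ptU img) 215040 384 = true := by decide +kernel

theorem p561 : allR (ptU img) 215424 384 = true := by decide +kernel

theorem p562 : allR (ptU img) 215808 384 = true := by decide +kernel

theorem p563 : allR (ptU img) 216192 384 = true := by decide +kernel

theorem p564 : allR (ptU img) 216576 384 = true := by decide +kernel

theorem p565 : allR (ptU img) 216960 384 = true := by decide +kernel

theorem p566 : allR (ptU img) 217344 384 = true := by decide +kernel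

theorem p567 : allR (ptU img) 217728 384 = true := by decide +kernel

theorem p568 : allR (ptU img) 218112 384 = true := by decide +kernel

theorem p569 : allR (ptU img) 218496 384 = true := by decide +kernel

end Cfsg.H6.Fi24
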