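import Cfsg.Agent.H6.Fi24.Tab2

set_option autoImplicit false
set_option maxRecDepth 100000
set_option Elab.async false

namespace Cfsg.H6.Fi24

theorem p570 : allR (ptU img) 218880 384 = true := by decide +kernel

theorem p571 : allR (ptU img) 219264 384 = true := by decide +kernel

theorem p572 : allR (ptU img) 219648 384 = true := by decide +kernel

theorem p573 : allR (ptU img) 220032 384 = true := by decide +kernel

theorem p574 : allR (ptU img) 220416 384 = true := by decide +kernel

theorem p575 : allR (ptU img) 220800 384 = true := by decide +kernel

theorem p576 : allR (ptU img) 221184 384 = true := by decide +kernel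

theorem p577 : allR (ptU img) 221568 384 = true := by decide +kernel

theorem p578 : allR (ptU img) 221952 384 = true := by decide +kernel

theorem p579 : allR (ptU img) 222336 384 = true := by decide +kernel

end Cfsg.H6.Fi24
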