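import Cfsg.Agent.H6.Fi24.Tab2

set_option autoImplicit false
set_option maxRecDepth 100000
set_option Elab.async false

namespace Cfsg.H6.Fi24

theorem p580 : allR (ptU img) 222720 384 = true := by decide +kernel

theorem p581 : allR (ptU img) 223104 384 = true := by decide +kernel

theorem p582 : allR (ptU img) 223488 384 = true := by decide +kernel

theorem p583 : allR (ptU img) 223872 384 = true := by decide +kernel

theorem p584 : allR (ptU img) 224256 384 = true := by decide +kernel

theorem p585 : allR (ptU img) 224640 384 = true := by decide +kernel

theorem p586 : allR (ptU img) 225024 384 = true := by decide +kernel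

theorem p587 : allR (ptU img) 225408 384 = true := by decide +kernel

theorem p588 : allR (ptU img) 225792 384 = true := by decide +kernel

theorem p589 : allR (ptU img) 226176 384 = true := by decide +kernel

end Cfsg.H6.Fi24
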