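import Cfsg.Agent.H6.Fi24.Tab2

set_option autoImplicit false
set_option maxRecDepth 100000
set_option Elab.async false

namespace Cfsg.H6.Fi24

theorem p590 : allR (ptU img) 226560 384 = true := by decide +kernel

theorem p591 : allR (ptU img) 226944 384 = true := by decide +kernel

theorem p592 : allR (ptU img) 227328 384 = true := by decide +kernel

theorem p593 : allR (ptU img) 227712 384 = true := by decide +kernel

theorem p594 : allR (ptU img) 228096 384 = true := by decide +kernel

theorem p595 : allR (ptU img) 228480 384 = true := by decide +kernel

theorem p596 : allR (ptU img) 228864 384 = true := by decide +kernel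

theorem p597 : allR (ptU img) 229248 384 = true := by decide +kernel

theorem p598 : allR (ptU img) 229632 384 = true := by decide +kernel

theorem p599 : allR (ptU img) 230016 384 = true := by decide +kernel

end Cfsg.H6.Fi24
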