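import Cfsg.Agent.H6.Fi24.Tab2

set_option autoImplicit false
set_option maxRecDepth 100000
set_option Elab.async false

namespace Cfsg.H6.Fi24

theorem p60 : allR (ptU img) 23040 384 = true := by decide +kernel

theorem p61 : allR (ptU img) 23424 384 = true := by decide +kernel

theorem p62 : allR (ptU img) 23808 384 = true := by decide +kernel

theorem p63 : allR (ptU img) 24192 384 = true := by decide +kernel

theorem p64 : allR (ptU img) 24576 384 = true := by decide +kernel

theorem p65 : allR (ptU img) 24960 384 = true := by decide +kernel

theorem p66 : allR (ptU img) 25344 384 = true := by decide +kernel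

theorem p67 : allR (ptU img) 25728 384 = true := by decide +kernel

theorem p68 : allR (ptU img) 26112 384 = true := by decide +kernel

theorem p69 : allR (ptU img) 26496 384 = true := by decide +kernel

end Cfsg.H6.Fi24
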