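import Cfsg.Agent.H6.Fi24.Tab2

set_option autoImplicit false
set_option maxRecDepth 100000
set_option Elab.async false

namespace Cfsg.H6.Fi24

theorem p600 : allR (ptU img) 230400 384 = true := by decide +kernel

theorem p601 : allR (ptU img) 230784 384 = true := by decide +kernel

theorem p602 : allR (ptU img) 231168 384 = true := by decide +kernel

theorem p603 : allR (ptU img) 231552 384 = true := by decide +kernel

theorem p604 : allR (ptU img) 231936 384 = true := by decide +kernel

theorem p605 : allR (ptU img) 232320 384 = true := by decide +kernel

theorem p606 : allR (ptU img) 232704 384 = true := by decide +kernel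

theorem p607 : allR (ptU img) 233088 384 = true := by decide +kernel

theorem p608 : allR (ptU img) 233472 384 = true := by decide +kernel

theorem p609 : allR (ptU img) 233856 384 = true := by decide +kernel

end Cfsg.H6.Fi24
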