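import Cfsg.Agent.H6.Fi24.Tab2

set_option autoImplicit false
set_option maxRecDepth 100000
set_option Elab.async false

namespace Cfsg.H6.Fi24

theorem p610 : allR (ptU img) 234240 384 = true := by decide +kernel

theorem p611 : allR (ptU img) 234624 384 = true := by decide +kernel

theorem p612 : allR (ptU img) 235008 384 = true := by decide +kernel

theorem p613 : allR (ptU img) 235392 384 = true := by decide +kernel

theorem p614 : allR (ptU img) 235776 384 = true := by decide +kernel

theorem p615 : allR (ptU img) 236160 384 = true := by decide +kernel

theorem p616 : allR (ptU img) 236544 384 = true := by decide +kernel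

theorem p617 : allR (ptU img) 236928 384 = true := by decide +kernel

theorem p618 : allR (ptU img) 237312 384 = true := by decide +kernel

theorem p619 : allR (ptU img) 237696 384 = true := by decide +kernel

end Cfsg.H6.Fi24
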