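import Cfsg.Agent.H6.Fi24.Tab2

set_option autoImplicit false
set_option maxRecDepth 100000
set_option Elab.async false

namespace Cfsg.H6.Fi24

theorem p620 : allR (ptU img) 238080 384 = true := by decide +kernel

theorem p621 : allR (ptU img) 238464 384 = true := by decide +kernel

theorem p622 : allR (ptU img) 238848 384 = true := by decide +kernel

theorem p623 : allR (ptU img) 239232 384 = true := by decide +kernel

theorem p624 : allR (ptU img) 239616 384 = true := by decide +kernel

theorem p625 : allR (ptU img) 240000 384 = true := by decide +kernel

theorem p626 : allR (ptU img) 240384 384 = true := by decide +kernel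

theorem p627 : allR (ptU img) 240768 384 = true := by decide +kernel

theorem p628 : allR (ptU img) 241152 384 = true := by decide +kernel

theorem p629 : allR (ptU img) 241536 384 = true := by decide +kernel

end Cfsg.H6.Fi24
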