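import Cfsg.Agent.H6.Fi24.Tab2

set_option autoImplicit false
set_option maxRecDepth 100000
set_option Elab.async false

namespace Cfsg.H6.Fi24

theorem p630 : allR (ptU img) 241920 384 = true := by decide +kernel

theorem p631 : allR (ptU img) 242304 384 = true := by decide +kernel

theorem p632 : allR (ptU img) 242688 384 = true := by decide +kernel

theorem p633 : allR (ptU img) 243072 384 = true := by decide +kernel

theorem p634 : allR (ptU img) 243456 384 = true := by decide +kernel

theorem p635 : allR (ptU img) 243840 384 = true := by decide +kernel

theorem p636 : allR (ptU img) 244224 384 = true := by decide +kernel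

theorem p637 : allR (ptU img) 244608 384 = true := by decide +kernel

theorem p638 : allR (ptU img) 244992 384 = true := by decide +kernel

theorem p639 : allR (ptU img) 245376 384 = true := by decide +kernel

end Cfsg.H6.Fi24
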