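import Cfsg.Agent.H6.Fi24.Tab2

set_option autoImplicit false
set_option maxRecDepth 100000
set_option Elab.async false

namespace Cfsg.H6.Fi24

theorem p640 : allR (ptU img) 245760 384 = true := by decide +kernel

theorem p641 : allR (ptU img) 246144 384 = true := by decide +kernel

theorem p642 : allR (ptU img) 246528 384 = true := by decide +kernel

theorem p643 : allR (ptU img) 246912 384 = true := by decide +kernel

theorem p644 : allR (ptU img) 247296 384 = true := by decide +kernel

theorem p645 : allR (ptU img) 247680 384 = true := by decide +kernel

theorem p646 : allR (ptU img) 248064 384 = true := by decide +kernel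

theorem p647 : allR (ptU img) 248448 384 = true := by decide +kernel

theorem p648 : allR (ptU img) 248832 384 = true := by decide +kernel

theorem p649 : allR (ptU img) 249216 384 = true := by decide +kernel

end Cfsg.H6.Fi24
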