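import Cfsg.Agent.H6.Fi24.Tab2

set_option autoImplicit false
set_option maxRecDepth 100000
set_option Elab.async false

namespace Cfsg.H6.Fi24

theorem p650 : allR (ptU img) 249600 384 = true := by decide +kernel

theorem p651 : allR (ptU img) 249984 384 = true := by decide +kernel

theorem p652 : allR (ptU img) 250368 384 = true := by decide +kernel

theorem p653 : allR (ptU img) 250752 384 = true := by decide +kernel

theorem p654 : allR (ptU img) 251136 384 = true := by decide +kernel

theorem p655 : allR (ptU img) 251520 384 = true := by decide +kernel

theorem p656 : allR (ptU img) 251904 384 = true := by decide +kernel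

theorem p657 : allR (ptU img) 252288 384 = true := by decide +kernel

theorem p658 : allR (ptU img) 252672 384 = true := by decide +kernel

theorem p659 : allR (ptU img) 253056 384 = true := by decide +kernel

end Cfsg.H6.Fi24
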