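import Cfsg.Agent.H6.Fi24.Tab2

set_option autoImplicit false
set_option maxRecDepth 100000
set_option Elab.async false

namespace Cfsg.H6.Fi24

theorem p660 : allR (ptU img) 253440 384 = true := by decide +kernel

theorem p661 : allR (ptU img) 253824 384 = true := by decide +kernel

theorem p662 : allR (ptU img) 254208 384 = true := by decide +kernel

theorem p663 : allR (ptU img) 254592 384 = true := by decide +kernel

theorem p664 : allR (ptU img) 254976 384 = true := by decide +kernel

theorem p665 : allR (ptU img) 255360 384 = true := by decide +kernel

theorem p666 : allR (ptU img) 255744 384 = true := by decide +kernel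

theorem p667 : allR (ptU img) 256128 384 = true := by decide +kernel

theorem p668 : allR (ptU img) 256512 384 = true := by decide +kernel

theorem p669 : allR (ptU img) 256896 384 = true := by decide +kernel

end Cfsg.H6.Fi24
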