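import Cfsg.Agent.H6.Fi24.Tab2

set_option autoImplicit false
set_option maxRecDepth 100000
set_option Elab.async false

namespace Cfsg.H6.Fi24

theorem p670 : allR (ptU img) 257280 384 = true := by decide +kernel

theorem p671 : allR (ptU img) 257664 384 = true := by decide +kernel

theorem p672 : allR (ptU img) 258048 384 = true := by decide +kernel

theorem p673 : allR (ptU img) 258432 384 = true := by decide +kernel

theorem p674 : allR (ptU img) 258816 384 = true := by decide +kernel

theorem p675 : allR (ptU img) 259200 384 = true := by decide +kernel

theorem p676 : allR (ptU img) 259584 384 = true := by decide +kernel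

theorem p677 : allR (ptU img) 259968 384 = true := by decide +kernel

theorem p678 : allR (ptU img) 260352 384 = true := by decide +kernel

theorem p679 : allR (ptU img) 260736 384 = true := by decide +kernel

end Cfsg.H6.Fi24
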