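import Cfsg.Agent.H6.Fi24.Tab2

set_option autoImplicit false
set_option maxRecDepth 100000
set_option Elab.async false

namespace Cfsg.H6.Fi24

theorem p680 : allR (ptU img) 261120 384 = true := by decide +kernel

theorem p681 : allR (ptU img) 261504 384 = true := by decide +kernel

theorem p682 : allR (ptU img) 261888 384 = true := by decide +kernel

theorem p683 : allR (ptU img) 262272 384 = true := by decide +kernel

theorem p684 : allR (ptU img) 262656 384 = true := by decide +kernel

theorem p685 : allR (ptU img) 263040 384 = true := by decide +kernel

theorem p686 : allR (ptU img) 263424 384 = true := by decide +kernel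

theorem p687 : allR (ptU img) 263808 384 = true := by decide +kernel

theorem p688 : allR (ptU img) 264192 384 = true := by decide +kernel

theorem p689 : allR (ptU img) 264576 384 = true := by decide +kernel

end Cfsg.H6.Fi24
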