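import Cfsg.Agent.H6.Fi24.Tab2

set_option autoImplicit false
set_option maxRecDepth 100000
set_option Elab.async false

namespace Cfsg.H6.Fi24

theorem p690 : allR (ptU img) 264960 384 = true := by decide +kernel

theorem p691 : allR (ptU img) 265344 384 = true := by decide +kernel

theorem p692 : allR (ptU img) 265728 384 = true := by decide +kernel

theorem p693 : allR (ptU img) 266112 384 = true := by decide +kernel

theorem p694 : allR (ptU img) 266496 384 = true := by decide +kernel

theorem p695 : allR (ptU img) 266880 384 = true := by decide +kernel

theorem p696 : allR (ptU img) 267264 384 = true := by decide +kernel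

theorem p697 : allR (ptU img) 267648 384 = true := by decide +kernel

theorem p698 : allR (ptU img) 268032 384 = true := by decide +kernel

theorem p699 : allR (ptU img) 268416 384 = true := by decide +kernel

end Cfsg.H6.Fi24
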