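import Cfsg.Agent.H6.Fi24.Tab2

set_option autoImplicit false
set_option maxRecDepth 100000
set_option Elab.async false

namespace Cfsg.H6.Fi24

theorem p70 : allR (ptU img) 26880 384 = true := by decide +kernel

theorem p71 : allR (ptU img) 27264 384 = true := by decide +kernel

theorem p72 : allR (ptU img) 27648 384 = true := by decide +kernel

theorem p73 : allR (ptU img) 28032 384 = true := by decide +kernel

theorem p74 : allR (ptU img) 28416 384 = true := by decide +kernel

theorem p75 : allR (ptU img) 28800 384 = true := by decide +kernel

theorem p76 : allR (ptU img) 29184 384 = true := by decide +kernel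

theorem p77 : allR (ptU img) 29568 384 = true := by decide +kernel

theorem p78 : allR (ptU img) 29952 384 = true := by decide +kernel

theorem p79 : allR (ptU img) 30336 384 = true := by decide +kernel

end Cfsg.H6.Fi24
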