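import Cfsg.Agent.H6.Fi24.Tab2

set_option autoImplicit false
set_option maxRecDepth 100000
set_option Elab.async false

namespace Cfsg.H6.Fi24

theorem p700 : allR (ptU img) 268800 384 = true := by decide +kernel

theorem p701 : allR (ptU img) 269184 384 = true := by decide +kernel

theorem p702 : allR (ptU img) 269568 384 = true := by decide +kernel

theorem p703 : allR (ptU img) 269952 384 = true := by decide +kernel

theorem p704 : allR (ptU img) 270336 384 = true := by decide +kernel

theorem p705 : allR (ptU img) 270720 384 = true := by decide +kernel

theorem p706 : allR (ptU img) 271104 384 = true := by decide +kernel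

theorem p707 : allR (ptU img) 271488 384 = true := by decide +kernel

theorem p708 : allR (ptU img) 271872 384 = true := by decide +kernel

theorem p709 : allR (ptU img) 272256 384 = true := by decide +kernel

end Cfsg.H6.Fi24
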