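import Cfsg.Agent.H6.Fi24.Tab2

set_option autoImplicit false
set_option maxRecDepth 100000
set_option Elab.async false

namespace Cfsg.H6.Fi24

theorem p710 : allR (ptU img) 272640 384 = true := by decide +kernel

theorem p711 : allR (ptU img) 273024 384 = true := by decide +kernel

theorem p712 : allR (ptU img) 273408 384 = true := by decide +kernel

theorem p713 : allR (ptU img) 273792 384 = true := by decide +kernel

theorem p714 : allR (ptU img) 274176 384 = true := by decide +kernel

theorem p715 : allR (ptU img) 274560 384 = true := by decide +kernel

theorem p716 : allR (ptU img) 274944 384 = true := by decide +kernel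

theorem p717 : allR (ptU img) 275328 384 = true := by decide +kernel

theorem p718 : allR (ptU img) 275712 384 = true := by decide +kernel

theorem p719 : allR (ptU img) 276096 384 = true := by decide +kernel

end Cfsg.H6.Fi24
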