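import Cfsg.Agent.H6.Fi24.Tab2

set_option autoImplicit false
set_option maxRecDepth 100000
set_option Elab.async false

namespace Cfsg.H6.Fi24

theorem p720 : allR (ptU img) 276480 384 = true := by decide +kernel

theorem p721 : allR (ptU img) 276864 384 = true := by decide +kernel

theorem p722 : allR (ptU img) 277248 384 = true := by decide +kernel

theorem p723 : allR (ptU img) 277632 384 = true := by decide +kernel

theorem p724 : allR (ptU img) 278016 384 = true := by decide +kernel

theorem p725 : allR (ptU img) 278400 384 = true := by decide +kernel

theorem p726 : allR (ptU img) 278784 384 = true := by decide +kernel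

theorem p727 : allR (ptU img) 279168 384 = true := by decide +kernel

theorem p728 : allR (ptU img) 279552 384 = true := by decide +kernel

theorem p729 : allR (ptU img) 279936 384 = true := by decide +kernel

end Cfsg.H6.Fi24
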