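import Cfsg.Agent.H6.Fi24.Tab2

set_option autoImplicit false
set_option maxRecDepth 100000
set_option Elab.async false

namespace Cfsg.H6.Fi24

theorem p730 : allR (ptU img) 280320 384 = true := by decide +kernel

theorem p731 : allR (ptU img) 280704 384 = true := by decide +kernel

theorem p732 : allR (ptU img) 281088 384 = true := by decide +kernel

theorem p733 : allR (ptU img) 281472 384 = true := by decide +kernel

theorem p734 : allR (ptU img) 281856 384 = true := by decide +kernel

theorem p735 : allR (ptU img) 282240 384 = true := by decide +kernel

theorem p736 : allR (ptU img) 282624 384 = true := by decide +kernel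

theorem p737 : allR (ptU img) 283008 384 = true := by decide +kernel

theorem p738 : allR (ptU img) 283392 384 = true := by decide +kernel

theorem p739 : allR (ptU img) 283776 384 = true := by decide +kernel

end Cfsg.H6.Fi24
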