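import Cfsg.Agent.H6.Fi24.Tab2

set_option autoImplicit false
set_option maxRecDepth 100000
set_option Elab.async false

namespace Cfsg.H6.Fi24

theorem p740 : allR (ptU img) 284160 384 = true := by decide +kernel

theorem p741 : allR (ptU img) 284544 384 = true := by decide +kernel

theorem p742 : allR (ptU img) 284928 384 = true := by decide +kernel

theorem p743 : allR (ptU img) 285312 384 = true := by decide +kernel

theorem p744 : allR (ptU img) 285696 384 = true := by decide +kernel

theorem p745 : allR (ptU img) 286080 384 = true := by decide +kernel

theorem p746 : allR (ptU img) 286464 384 = true := by decide +kernel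

theorem p747 : allR (ptU img) 286848 384 = true := by decide +kernel

theorem p748 : allR (ptU img) 287232 384 = true := by decide +kernel

theorem p749 : allR (ptU img) 287616 384 = true := by decide +kernel

end Cfsg.H6.Fi24
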