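import Cfsg.Agent.H6.Fi24.Tab2

set_option autoImplicit false
set_option maxRecDepth 100000
set_option Elab.async false

namespace Cfsg.H6.Fi24

theorem p750 : allR (ptU img) 288000 384 = true := by decide +kernel

theorem p751 : allR (ptU img) 288384 384 = true := by decide +kernel

theorem p752 : allR (ptU img) 288768 384 = true := by decide +kernel

theorem p753 : allR (ptU img) 289152 384 = true := by decide +kernel

theorem p754 : allR (ptU img) 289536 384 = true := by decide +kernel

theorem p755 : allR (ptU img) 289920 384 = true := by decide +kernel

theorem p756 : allR (ptU img) 290304 384 = true := by decide +kernel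

theorem p757 : allR (ptU img) 290688 384 = true := by decide +kernel

theorem p758 : allR (ptU img) 291072 384 = true := by decide +kernel

theorem p759 : allR (ptU img) 291456 384 = true := by decide +kernel

end Cfsg.H6.Fi24
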