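import Cfsg.Agent.H6.Fi24.Tab2

set_option autoImplicit false
set_option maxRecDepth 100000
set_option Elab.async false

namespace Cfsg.H6.Fi24

theorem p760 : allR (ptU img) 291840 384 = true := by decide +kernel

theorem p761 : allR (ptU img) 292224 384 = true := by decide +kernel

theorem p762 : allR (ptU img) 292608 384 = true := by decide +kernel

theorem p763 : allR (ptU img) 292992 384 = true := by decide +kernel

theorem p764 : allR (ptU img) 293376 384 = true := by decide +kernel

theorem p765 : allR (ptU img) 293760 384 = true := by decide +kernel

theorem p766 : allR (ptU img) 294144 384 = true := by decide +kernel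

theorem p767 : allR (ptU img) 294528 384 = true := by decide +kernel

theorem p768 : allR (ptU img) 294912 384 = true := by decide +kernel

theorem p769 : allR (ptU img) 295296 384 = true := by decide +kernel

end Cfsg.H6.Fi24
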