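import Cfsg.Agent.H6.Fi24.Tab2

set_option autoImplicit false
set_option maxRecDepth 100000
set_option Elab.async false

namespace Cfsg.H6.Fi24

theorem p770 : allR (ptU img) 295680 384 = true := by decide +kernel

theorem p771 : allR (ptU img) 296064 384 = true := by decide +kernel

theorem p772 : allR (ptU img) 296448 384 = true := by decide +kernel

theorem p773 : allR (ptU img) 296832 384 = true := by decide +kernel

theorem p774 : allR (ptU img) 297216 384 = true := by decide +kernel

theorem p775 : allR (ptU img) 297600 384 = true := by decide +kernel

theorem p776 : allR (ptU img) 297984 384 = true := by decide +kernel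

theorem p777 : allR (ptU img) 298368 384 = true := by decide +kernel

theorem p778 : allR (ptU img) 298752 384 = true := by decide +kernel

theorem p779 : allR (ptU img) 299136 384 = true := by decide +kernel

end Cfsg.H6.Fi24
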