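import Cfsg.Agent.H6.Fi24.Tab2

set_option autoImplicit false
set_option maxRecDepth 100000
set_option Elab.async false

namespace Cfsg.H6.Fi24

theorem p780 : allR (ptU img) 299520 384 = true := by decide +kernel

theorem p781 : allR (ptU img) 299904 384 = true := by decide +kernel

theorem p782 : allR (ptU img) 300288 384 = true := by decide +kernel

theorem p783 : allR (ptU img) 300672 384 = true := by decide +kernel

theorem p784 : allR (ptU img) 301056 384 = true := by decide +kernel

theorem p785 : allR (ptU img) 301440 384 = true := by decide +kernel

theorem p786 : allR (ptU img) 301824 384 = true := by decide +kernel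

theorem p787 : allR (ptU img) 302208 384 = true := by decide +kernel

theorem p788 : allR (ptU img) 302592 384 = true := by decide +kernel

theorem p789 : allR (ptU img) 302976 384 = true := by decide +kernel

end Cfsg.H6.Fi24
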