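import Cfsg.Agent.H6.Fi24.Tab2

set_option autoImplicit false
set_option maxRecDepth 100000
set_option Elab.async false

namespace Cfsg.H6.Fi24

theorem p790 : allR (ptU img) 303360 384 = true := by decide +kernel

theorem p791 : allR (ptU img) 303744 384 = true := by decide +kernel

theorem p792 : allR (ptU img) 304128 384 = true := by decide +kernel

theorem p793 : allR (ptU img) 304512 384 = true := by decide +kernel

theorem p794 : allR (ptU img) 304896 384 = true := by decide +kernel

theorem p795 : allR (ptU img) 305280 384 = true := by decide +kernel

theorem p796 : allR (ptU img) 305664 384 = true := by decide +kernel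

theorem p797 : allR (ptU img) 306048 384 = true := by decide +kernel

theorem p798 : allR (ptU img) 306432 384 = true := by decide +kernel

theorem p799 : allR (ptU img) 306816 120 = true := by decide +kernel

end Cfsg.H6.Fi24
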