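import Cfsg.Agent.H6.Fi24.Tab2

set_option autoImplicit false
set_option maxRecDepth 100000
set_option Elab.async false

namespace Cfsg.H6.Fi24

theorem p80 : allR (ptU img) 30720 384 = true := by decide +kernel

theorem p81 : allR (ptU img) 31104 384 = true := by decide +kernel

theorem p82 : allR (ptU img) 31488 384 = true := by decide +kernel

theorem p83 : allR (ptU img) 31872 384 = true := by decide +kernel

theorem p84 : allR (ptU img) 32256 384 = true := by decide +kernel

theorem p85 : allR (ptU img) 32640 384 = true := by decide +kernel

theorem p86 : allR (ptU img) 33024 384 = true := by decide +kernel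

theorem p87 : allR (ptU img) 33408 384 = true := by decide +kernel

theorem p88 : allR (ptU img) 33792 384 = true := by decide +kernel

theorem p89 : allR (ptU img) 34176 384 = true := by decide +kernel

end Cfsg.H6.Fi24
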