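import Cfsg.Agent.H6.Fi24.Tab2

set_option autoImplicit false
set_option maxRecDepth 100000
set_option Elab.async false

namespace Cfsg.H6.Fi24

theorem q0_0 : allR (ivl img Ws 1 31672) 1 6818 = true := by decide +kernel

theorem q0_1 : allR (ivl img Ws 1 31672) 6819 6818 = true := by decide +kernel

theorem q0_2 : allR (ivl img Ws 1 31672) 13637 6818 = true := by decide +kernel

theorem q0_3 : allR (ivl img Ws 1 31672) 20455 6818 = true := by decide +kernel

theorem q0_4 : allR (ivl img Ws 1 31672) 27273 4399 = true := by decide +kernel

theorem q1_0 : allR (ivl img Ws 31672 306936) 31672 6818 = true := by decide +kernel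

theorem q1_1 : allR (ivl img Ws 31672 306936) 38490 6818 = true := by decide +kernel

theorem q1_2 : allR (ivl img Ws 31672 306936) 45308 6818 = true := by decide +kernel

theorem q1_3 : allR (ivl img Ws 31672 306936) 52126 6818 = true := by decide +kernel

theorem q1_4 : allR (ivl img Ws 31672 306936) 58944 6818 = true := by decide +kernel

end Cfsg.H6.Fi24
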