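import Cfsg.Agent.H6.Fi24.Tab2

set_option autoImplicit false
set_option maxRecDepth 100000
set_option Elab.async false

namespace Cfsg.H6.Fi24

theorem q1_5 : allR (ivl img Ws 31672 306936) 65762 6818 = true := by decide +kernel

theorem q1_6 : allR (ivl img Ws 31672 306936) 72580 6818 = true := by decide +kernel

theorem q1_7 : allR (ivl img Ws 31672 306936) 79398 6818 = true := by decide +kernel

theorem q1_8 : allR (ivl img Ws 31672 306936) 86216 6818 = true := by decide +kernel

theorem q1_9 : allR (ivl img Ws 31672 306936) 93034 6818 = true := by decide +kernel

theorem q1_10 : allR (ivl img Ws 31672 306936) 99852 6818 = true := by decide +kernel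

theorem q1_11 : allR (ivl img Ws 31672 306936) 106670 6818 = true := by decide +kernel

theorem q1_12 : allR (ivl img Ws 31672 306936) 113488 6818 = true := by decide +kernel

theorem q1_13 : allR (ivl img Ws 31672 306936) 120306 6818 = true := by decide +kernel

theorem q1_14 : allR (ivl img Ws 31672 306936) 127124 6818 = true := by decide +kernel

end Cfsg.H6.Fi24
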