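import Cfsg.Agent.H6.Fi24.Tab2

set_option autoImplicit false
set_option maxRecDepth 100000
set_option Elab.async false

namespace Cfsg.H6.Fi24

theorem q1_15 : allR (ivl img Ws 31672 306936) 133942 6818 = true := by decide +kernel

theorem q1_16 : allR (ivl img Ws 31672 306936) 140760 6818 = true := by decide +kernel

theorem q1_17 : allR (ivl img Ws 31672 306936) 147578 6818 = true := by decide +kernel

theorem q1_18 : allR (ivl img Ws 31672 306936) 154396 6818 = true := by decide +kernel

theorem q1_19 : allR (ivl img Ws 31672 306936) 161214 6818 = true := by decide +kernel

theorem q1_20 : allR (ivl img Ws 31672 306936) 168032 6818 = true := by decide +kernel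

theorem q1_21 : allR (ivl img Ws 31672 306936) 174850 6818 = true := by decide +kernel

theorem q1_22 : allR (ivl img Ws 31672 306936) 181668 6818 = true := by decide +kernel

theorem q1_23 : allR (ivl img Ws 31672 306936) 188486 6818 = true := by decide +kernel

theorem q1_24 : allR (ivl img Ws 31672 306936) 195304 6818 = true := by decide +kernel

end Cfsg.H6.Fi24
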