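import Cfsg.Agent.H6.Fi24.Tab2

set_option autoImplicit false
set_option maxRecDepth 100000
set_option Elab.async false

namespace Cfsg.H6.Fi24

theorem q1_25 : allR (ivl img Ws 31672 306936) 202122 6818 = true := by decide +kernel

theorem q1_26 : allR (ivl img Ws 31672 306936) 208940 6818 = true := by decide +kernel

theorem q1_27 : allR (ivl img Ws 31672 306936) 215758 6818 = true := by decide +kernel

theorem q1_28 : allR (ivl img Ws 31672 306936) 222576 6818 = true := by decide +kernel

theorem q1_29 : allR (ivl img Ws 31672 306936) 229394 6818 = true := by decide +kernel

theorem q1_30 : allR (ivl img Ws 31672 306936) 236212 6818 = true := by decide +kernel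

theorem q1_31 : allR (ivl img Ws 31672 306936) 243030 6818 = true := by decide +kernel

theorem q1_32 : allR (ivl img Ws 31672 306936) 249848 6818 = true := by decide +kernel

theorem q1_33 : allR (ivl img Ws 31672 306936) 256666 6818 = true := by decide +kernel

theorem q1_34 : allR (ivl img Ws 31672 306936) 263484 6818 = true := by decide +kernel

end Cfsg.H6.Fi24
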