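import Cfsg.Agent.H6.Fi24.Tab2

set_option autoImplicit false
set_option maxRecDepth 100000
set_option Elab.async false

namespace Cfsg.H6.Fi24

theorem q1_35 : allR (ivl img Ws 31672 306936) 270302 6818 = true := by decide +kernel

theorem q1_36 : allR (ivl img Ws 31672 306936) 277120 6818 = true := by decide +kernel

theorem q1_37 : allR (ivl img Ws 31672 306936) 283938 6818 = true := by decide +kernel

theorem q1_38 : allR (ivl img Ws 31672 306936) 290756 6818 = true := by decide +kernel

theorem q1_39 : allR (ivl img Ws 31672 306936) 297574 6818 = true := by decide +kernel

theorem q1_40 : allR (ivl img Ws 31672 306936) 304392 2544 = true := by decide +kernel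

end Cfsg.H6.Fi24
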