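import Cfsg.Agent.H6.Fi24.Tab2

set_option autoImplicit false
set_option maxRecDepth 100000
set_option Elab.async false

namespace Cfsg.H6.Fi24

theorem p90 : allR (ptU img) 34560 384 = true := by decide +kernel

theorem p91 : allR (ptU img) 34944 384 = true := by decide +kernel

theorem p92 : allR (ptU img) 35328 384 = true := by decide +kernel

theorem p93 : allR (ptU img) 35712 384 = true := by decide +kernel

theorem p94 : allR (ptU img) 36096 384 = true := by decide +kernel

theorem p95 : allR (ptU img) 36480 384 = true := by decide +kernel

theorem p96 : allR (ptU img) 36864 384 = true := by decide +kernel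

theorem p97 : allR (ptU img) 37248 384 = true := by decide +kernel

theorem p98 : allR (ptU img) 37632 384 = true := by decide +kernel

theorem p99 : allR (ptU img) 38016 384 = true := by decide +kernel

end Cfsg.H6.Fi24
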