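import Cfsg.Agent.H6.Ab
import Cfsg.Agent.H6.Fi24.Pres

set_option autoImplicit false
set_option maxRecDepth 100000

namespace Cfsg.H6.Fi24

/-- The parity of the length of a word. -/
def sgn (l : ℕ) : Multiplicative (ZMod 2) := if 1 ≤ l ∧ l ≤ 12 then Multiplicative.ofAdd 1 else 1

theorem sgn_good : Good sgn 954154417186781389109644624128 := by
  refine ⟨rfl, fun l => ?_⟩
  by_cases hl : l < 13
  · revert l
    decide +kernel
  · rw [invL_eq_zero (n := 13) (by norm_num) (by omega)]
    unfold sgn
    rw [if_neg (by omega), if_neg (by omega), inv_one]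

theorem sgn_rels : Rels sgn R := by
  unfold Rels
  decide +kernel

theorem exists_sgn : ∃ ψ : Spor.Fi24 →* Multiplicative (ZMod 2), ∀ l, ψ (ev l) = sgn l :=
  lift sgn_good sgn_rels

theorem sq (l : ℕ) : ev l * ev l = 1 := by
  by_cases hl : l < 13
  · have h1 : invL 954154417186781389109644624128 l = l := by
      revert l
      decide +kernel
    have h2 := hev.inv l
    rw [h1] at h2
    exact mul_eq_one_iff_eq_inv.mpr h2
  · have h2 := hev.inv l
    rw [invL_eq_zero (n := 13) (by norm_num) (by omega), hev.zero, eq_comm, inv_eq_one] at h2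
    rw [h2, one_mul]

def T : List (List ℕ) := [[1,2], [1,3], [1,4], [1,5], [1,6], [1,7], [1,8], [1,9], [1,10], [1,11], [1,12]]

/-- A normal subgroup that contains the products of pairs of generators has index at most two. -/
theorem index_le_two (N : Subgroup Spor.Fi24) [N.Normal] (h : ∀ t ∈ T, evL ev t ∈ N) :
    N.index ≠ 0 ∧ N.index ≤ 2 := by
  have hz : Subgroup.zpowers (QuotientGroup.mk' N (ev 1)) = ⊤ := by
    rw [eq_top_iff, ← gen_map_top (QuotientGroup.mk' N) (QuotientGroup.mk'_surjective N) hX]
    apply gen_le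
    intro w hw
    have hw' : w = [1] ∨ (1 :: w) ∈ T := by
      revert w
      decide +kernel
    rcases hw' with rfl | hw'
    · rw [evL_singleton]
      exact Subgroup.mem_zpowers _
    · have h1 := (QuotientGroup.eq_one_iff _).mpr (h _ hw')
      rw [evL_cons, QuotientGroup.mk_mul, mul_eq_one_iff_inv_eq] at h1
      rw [← map_evL, QuotientGroup.mk'_apply N (evL ev w), ← h1]
      exact Subgroup.inv_mem _ (Subgroup.mem_zpowers _)
  have h2 : N.index = orderOf (QuotientGroup.mk' N (ev 1)) := by
    rw [← Nat.card_zpowers, hz, Subgroup.card_top]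
    rfl
  have h3 : orderOf (QuotientGroup.mk' N (ev 1)) ∣ 2 := by
    apply orderOf_dvd_of_pow_eq_one
    rw [← map_pow, pow_two, sq, map_one]
  rw [h2]
  exact ⟨fun h0 => by rw [h0] at h3; omega, Nat.le_of_dvd (by norm_num) h3⟩

theorem T_mem_commutator : ∀ t ∈ T, evL ev t ∈ commutator Spor.Fi24 := by
  have h1 := ab2_rels (A := Abelianization Spor.Fi24) (ev := fun l => Abelianization.of (ev l))
    (fun l => by rw [← map_mul, sq, map_one]) (hR.map _) (C := [[21], [21,30], [21,30,38], [21,30,38,45], [21,30,38,45,51], [21,30,38,45,51,56], [21,30,38,49], [21,30,38,49,65], [21,30,38,45,51,56,60], [11], [0,11]]) (T := T) (by decide +kernel)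
  intro t ht
  have h2 := h1 t ht
  rw [← map_evL] at h2
  exact (QuotientGroup.eq_one_iff _).mp h2

theorem a_not_mem : ev 1 ∉ commutator Spor.Fi24 := by
  obtain ⟨ψ, hψ⟩ := exists_sgn
  intro h
  have := Abelianization.commutator_subset_ker ψ h
  rw [MonoidHom.mem_ker, hψ] at this
  exact absurd this (by decide)

theorem index_commutator : (commutator Spor.Fi24).index = 2 := by
  obtain ⟨h1, h2⟩ := index_le_two _ T_mem_commutator
  have h3 : (commutator Spor.Fi24).index ≠ 1 := by
    rw [ne_eq, Subgroup.index_eq_one]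
    intro h
    exact a_not_mem (h ▸ Subgroup.mem_top _)
  omega

end Cfsg.H6.Fi24
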